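import Cfsg.Agent.PSL34.Model

/-!
A perfect central extension of PSL(3, 4) with kernel of exponent 2 has kernel of order at most 4.
-/

set_option autoImplicit false

namespace CfsgLib.PSL34

universe u v

variable {F : Type u} [Field F] [Fintype F]

local notation "PSL3" => Matrix.ProjectiveSpecialLinearGroup (Fin 3) F

/-- The set of the normal forms lies in a 64-element subgroup. -/
theorem exists_uni_subgroup (hF : Fintype.card F = 4) :
    ∃ U : Subgroup PSL3, Nat.card U = 64 ∧ ∀ x : PSL3, x ∈ U → ∃ a b c : F, pu a b c = x := by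
  obtain ⟨w, hw, -⟩ := exists_omega hF
  let U : Subgroup PSL3 :=
    { carrier := {x | ∃ a b c : F, pu a b c = x}
      one_mem' := ⟨0, 0, 0, pu_zero⟩
      mul_mem' := by
        rintro x y ⟨a, b, c, rfl⟩ ⟨a', b', c', rfl⟩
        exact ⟨_, _, _, (pu_mul a b c a' b' c').symm⟩
      inv_mem' := by
        rintro x ⟨a, b, c, rfl⟩
        refine ⟨-a, -b, -c + a * b, eq_inv_of_mul_eq_one_left ?_⟩
        rw [pu_mul, ← pu_zero (F := F)]
        congr 1 <;> ring }
  refine ⟨U, ?_, fun x hx => hx⟩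
  have e : Nat.card (F × F × F) = Nat.card U := Nat.card_congr (Equiv.ofBijective
    (fun p => ⟨pu p.1 p.2.1 p.2.2, _, _, _, rfl⟩) ⟨fun p r h => ?_, ?_⟩)
  · rw [← e, Nat.card_prod, Nat.card_prod, Nat.card_eq_fintype_card, hF]
  · obtain ⟨h1, h2, h3⟩ := pu_injective hw (congrArg Subtype.val h)
    exact Prod.ext h1 (Prod.ext h2 h3)
  · rintro ⟨x, a, b, c, rfl⟩
    exact ⟨(a, b, c), rfl⟩

/-- The closure of two commuting involutions has at most four elements. -/
theorem card_closure_pair_le {E : Type*} [Group E] (u v : E) (hu : u * u = 1) (hv : v * v = 1)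
    (huv : u * v = v * u) : Nat.card (Subgroup.closure ({u, v} : Set E)) ≤ 4 := by
  classical
  have hu' : ∀ y, u * (u * y) = y := fun y => by rw [← mul_assoc, hu, one_mul]
  have hv' : ∀ y, v * (v * y) = y := fun y => by rw [← mul_assoc, hv, one_mul]
  have hvu' : ∀ y, v * (u * y) = u * (v * y) := fun y => by rw [← mul_assoc, ← huv, mul_assoc]
  let S : Finset E := {1, u, v, u * v}
  have h1 : ∀ z, z ∈ S → u * z ∈ S := by
    intro z hz
    simp only [S, Finset.mem_insert, Finset.mem_singleton] at hz ⊢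
    rcases hz with rfl | rfl | rfl | rfl <;> simp [hu, hu']
  have h2 : ∀ z, z ∈ S → v * z ∈ S := by
    intro z hz
    simp only [S, Finset.mem_insert, Finset.mem_singleton] at hz ⊢
    rcases hz with rfl | rfl | rfl | rfl <;> simp [hv, hvu', ← huv]
  have key : ∀ z ∈ Subgroup.closure ({u, v} : Set E), z ∈ S := by
    intro z hz
    induction hz using Subgroup.closure_induction_left with
    | one => simp [S]
    | mul_left x hx y hy ih =>
      rcases hx with rfl | rfl
      · exact h1 _ ih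
      · exact h2 _ ih
    | inv_mul_cancel x hx y hy ih =>
      rcases hx with rfl | rfl
      · rw [inv_eq_of_mul_eq_one_right hu]; exact h1 _ ih
      · rw [inv_eq_of_mul_eq_one_right hv]; exact h2 _ ih
  calc Nat.card (Subgroup.closure ({u, v} : Set E)) ≤ Nat.card S :=
        Nat.card_le_card_of_injective (fun z => ⟨z.1, key z.1 z.2⟩)
          fun a b h => Subtype.ext (congrArg Subtype.val h :)
    _ = S.card := Nat.card_eq_finsetCard S
    _ ≤ 4 := by
        refine (Finset.card_insert_le _ _).trans (Nat.succ_le_succ ?_)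
        refine (Finset.card_insert_le _ _).trans (Nat.succ_le_succ ?_)
        exact (Finset.card_insert_le _ _).trans (by simp)

variable {E : Type v} [Group E]

theorem card_ker_le [Finite E] (hF : Fintype.card F = 4) (q : E →* PSL3)
    (hq : Function.Surjective q) (hperf : commutator E = ⊤)
    (hcen : q.ker ≤ Subgroup.center E) (hexp : ∀ z ∈ q.ker, z * z = 1) :
    Nat.card q.ker ≤ 4 := by
  have := charP_two hF
  obtain ⟨w, hw, hall⟩ := exists_omega hF
  have hw3 : w * w * w = 1 := omega_cube hw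
  have h2 : ∀ x : F, x + x = 0 := CharTwo.add_self_eq_zero
  let s : PSL3 → E := Function.surjInv hq
  have hs : ∀ x, q (s x) = x := Function.surjInv_eq hq
  have hcomm : ∀ z ∈ q.ker, ∀ g : E, g * z = z * g := fun z hz =>
    Subgroup.mem_center_iff.mp (hcen hz)
  -- lifts of a common element differ by a central element
  have hlift : ∀ l m : E, q l = q m → ∃ z ∈ q.ker, l = z * m := fun l m h =>
    ⟨l * m⁻¹, by simp [MonoidHom.mem_ker, h], by simp⟩
  -- squares of lifts of involutions
  set c0 : E := s (pu 0 0 1) * s (pu 0 0 1) with hc0def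
  have hc0 : c0 ∈ q.ker := by
    rw [MonoidHom.mem_ker, hc0def, map_mul, hs, pu_mul, ← pu_zero (F := F)]
    congr 1 <;> simp [h2]
  have hsq0 : ∀ l : E, IsConj (pu (0 : F) 0 1) (q l) → l * l = c0 := by
    intro l hl
    obtain ⟨g, hg⟩ := isConj_iff.mp hl
    obtain ⟨z, hz, hl'⟩ := hlift l (s g * s (pu 0 0 1) * (s g)⁻¹) (by simp [hs, hg])
    set k := s g * s (pu 0 0 1) * (s g)⁻¹ with hk
    have hk2 : k * k = c0 := by
      have e : k * k = s g * c0 * (s g)⁻¹ := by rw [hk, hc0def]; group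
      rw [e, hcomm c0 hc0, mul_inv_cancel_right]
    calc l * l = z * (k * z) * k := by rw [hl']; group
      _ = (z * z) * (k * k) := by rw [hcomm z hz k]; group
      _ = c0 := by rw [hexp z hz, one_mul, hk2]
  have hc0one : c0 = 1 := by
    have hA : ∀ a c : F, ¬ (a = 0 ∧ c = 0) → ∀ l : E, q l = pu a 0 c → l * l = c0 :=
      fun a c h l hl => hsq0 l (hl ▸ isConj_pu_A hF a c h)
    have hpair : ∀ a c a' c' : F, ¬ (a = 0 ∧ c = 0) → ¬ (a' = 0 ∧ c' = 0) →
        ¬ (a + a' = 0 ∧ c + c' = 0) → ∀ l m : E, q l = pu a 0 c → q m = pu a' 0 c' →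
          l * m = c0 * (m * l) := by
      intro a c a' c' h h' h'' l m hl hm
      have e : q (l * m) = pu (a + a') 0 (c + c') := by
        rw [map_mul, hl, hm, pu_mul]; congr 1 <;> ring
      have e1 := hA _ _ h'' _ e
      have e2 := hA _ _ h _ hl
      have e3 := hA _ _ h' _ hm
      have hc2 : c0 * c0 = 1 := hexp c0 hc0
      calc l * m = (l * m) * (l * m) * ((l * m)⁻¹) := by group
        _ = c0 * (m⁻¹ * l⁻¹) := by rw [e1]; group
        _ = c0 * ((c0⁻¹ * m) * (c0⁻¹ * l)) := by
            rw [show m⁻¹ = c0⁻¹ * m by rw [← e3]; group, show l⁻¹ = c0⁻¹ * l by rw [← e2]; group]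
        _ = c0 * (m * l) := by
            rw [inv_eq_of_mul_eq_one_right hc2]
            calc c0 * ((c0 * m) * (c0 * l)) = c0 * (c0 * (m * c0) * l) := by group
              _ = c0 * (c0 * c0 * (m * l)) := by rw [hcomm c0 hc0 m]; group
              _ = c0 * (m * l) := by rw [hc2, one_mul]
    have hw0 : w ≠ 0 := by rintro rfl; simp at hw
    set l := s (pu (1 : F) 0 0)
    set m := s (pu w 0 0)
    set n := s (pu (0 : F) 0 1)
    have hl : q l = pu 1 0 0 := hs _
    have hm : q m = pu w 0 0 := hs _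
    have hn : q n = pu 0 0 1 := hs _
    have hmn : q (m * n) = pu w 0 1 := by
      rw [map_mul, hm, hn, pu_mul]; congr 1 <;> simp
    have h1w : (1 : F) + w ≠ 0 := fun e => by
      have : w * w = 0 := by linear_combination hw - e
      exact hw0 (mul_self_eq_zero.mp this)
    have p1 := hpair 1 0 w 0 (by simp) (by simp [hw0]) (by simp [h1w]) l m hl hm
    have p2 := hpair 1 0 0 1 (by simp) (by simp) (by simp) l n hl hn
    have p3 := hpair 1 0 w 1 (by simp) (by simp) (by simp) l (m * n) hl hmn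
    have hc2 : c0 * c0 = 1 := hexp c0 hc0
    have e : c0 * (m * n * l) = m * n * l :=
      calc c0 * (m * n * l) = l * (m * n) := p3.symm
        _ = (l * m) * n := by group
        _ = c0 * m * (l * n) := by rw [p1]; group
        _ = c0 * (m * c0) * (n * l) := by rw [p2]; group
        _ = (c0 * c0) * (m * n * l) := by rw [hcomm c0 hc0 m]; group
        _ = m * n * l := by rw [hc2, one_mul]
    exact mul_eq_right.mp e
  have hinvA : ∀ (a c : F) (l : E), q l = pu a 0 c → l * l = 1 := by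
    intro a c l hl
    by_cases h : a = 0 ∧ c = 0
    · rw [h.1, h.2, pu_zero] at hl
      exact hexp l hl
    · rw [hsq0 l (hl ▸ isConj_pu_A hF a c h), hc0one]
  have hinvB : ∀ (b c : F) (l : E), q l = pu 0 b c → l * l = 1 := by
    intro b c l hl
    by_cases h : b = 0 ∧ c = 0
    · rw [h.1, h.2, pu_zero] at hl
      exact hexp l hl
    · rw [hsq0 l (hl ▸ isConj_pu_B hF b c h), hc0one]
  have hswap : ∀ l m : E, l * l = 1 → m * m = 1 → l * m * (l * m) = 1 → l * m = m * l := by
    intro l m hl hm hlm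
    rw [← inv_eq_of_mul_eq_one_right hlm, mul_inv_rev, inv_eq_of_mul_eq_one_right hl,
      inv_eq_of_mul_eq_one_right hm]
  have hcA : ∀ (a c a' c' : F) (l m : E), q l = pu a 0 c → q m = pu a' 0 c' →
      l * m = m * l := by
    intro a c a' c' l m hl hm
    refine hswap l m (hinvA _ _ _ hl) (hinvA _ _ _ hm) (hinvA (a + a') (c + c') _ ?_)
    rw [map_mul, hl, hm, pu_mul]; congr 1 <;> ring
  have hcB : ∀ (b c b' c' : F) (l m : E), q l = pu 0 b c → q m = pu 0 b' c' →
      l * m = m * l := by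
    intro b c b' c' l m hl hm
    refine hswap l m (hinvB _ _ _ hl) (hinvB _ _ _ hm) (hinvB (b + b') (c + c') _ ?_)
    rw [map_mul, hl, hm, pu_mul]; congr 1 <;> ring
  -- the torus element
  set π : PSL3 := toPSL (torus hw3) with hπdef
  have hπ3 : π ^ 3 = 1 := by
    rw [hπdef, ← map_pow]
    convert map_one (toPSL (F := F))
    apply Subtype.ext
    rw [torus_pow hw]
    have e3 : w ^ 3 = 1 := by linear_combination hw3
    have e6 : (w * w) ^ 3 = 1 := by linear_combination (w ^ 3 + 1) * e3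
    ext i j
    fin_cases i <;> fin_cases j <;> simp [e3, e6]
  obtain ⟨T, hT3, hqT⟩ : ∃ T : E, T ^ 3 = 1 ∧ q T = π := by
    refine ⟨s π ^ 4, ?_, ?_⟩
    · have hk : s π ^ 3 ∈ q.ker := by rw [MonoidHom.mem_ker, map_pow, hs, hπ3]
      have e := hexp _ hk
      calc (s π ^ 4) ^ 3 = (s π ^ 3 * s π ^ 3) ^ 2 := by
            rw [← pow_add, ← pow_mul, ← pow_mul]
        _ = 1 := by rw [e, one_pow]
    · rw [map_pow, hs, pow_succ, hπ3, one_mul]
  have hπpu : ∀ a b c : F, π * pu a b c = pu (w * w * a) (w * w * b) (w * c) * π := by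
    intro a b c
    rw [hπdef, pu, pu, ← map_mul, ← map_mul]
    exact congrArg toPSL (torus_mul_uni hw a b c)
  -- commutator with T, independent of the lift
  let δ : PSL3 → E := fun x => T * s x * T⁻¹ * (s x)⁻¹
  have hδ : ∀ l : E, T * l * T⁻¹ * l⁻¹ = δ (q l) := by
    intro l
    obtain ⟨z, hz, hl⟩ := hlift l (s (q l)) (by rw [hs])
    show _ = T * s (q l) * T⁻¹ * (s (q l))⁻¹
    generalize s (q l) = k at hl ⊢
    rw [hl]
    calc T * (z * k) * T⁻¹ * (z * k)⁻¹ = (T * z) * k * T⁻¹ * k⁻¹ * z⁻¹ := by group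
      _ = z * (T * k * T⁻¹ * k⁻¹) * z⁻¹ := by rw [hcomm z hz T]; group
      _ = _ := by rw [← hcomm z hz, mul_inv_cancel_right]
  have hqδ : ∀ a b c : F, q (δ (pu a b c)) = pu (w * w * a) (w * w * b) (w * c) * (pu a b c)⁻¹ := by
    intro a b c
    show q (T * s (pu a b c) * T⁻¹ * (s (pu a b c))⁻¹) = _
    simp only [map_mul, map_inv, hs, hqT]
    rw [hπpu, mul_inv_cancel_right]
  have hδconj : ∀ x : PSL3, T * δ x * T⁻¹ = δ (π * x * π⁻¹) := by
    intro x
    have e := hδ (T * s x * T⁻¹)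
    simp only [map_mul, map_inv, hs, hqT] at e
    rw [← e]
    show T * (T * s x * T⁻¹ * (s x)⁻¹) * T⁻¹ = _
    group
  have hδmul : ∀ l m : E, δ (q m) * l⁻¹ = l⁻¹ * δ (q m) → δ (q (l * m)) = δ (q l) * δ (q m) := by
    intro l m h
    rw [← hδ, ← hδ l]
    calc T * (l * m) * T⁻¹ * (l * m)⁻¹ = T * l * T⁻¹ * ((T * m * T⁻¹ * m⁻¹) * l⁻¹) := by group
      _ = T * l * T⁻¹ * (δ (q m) * l⁻¹) := by rw [hδ m]
      _ = T * l * T⁻¹ * l⁻¹ * δ (q m) := by rw [h]; group
  -- the three lifted root groups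
  let A0 : F → E := fun a => δ (pu (w * w * a) 0 0)
  let B0 : F → E := fun b => δ (pu 0 (w * w * b) 0)
  let C0 : F → E := fun c => δ (pu 0 0 (w * c))
  have hsum : w * w + w = 1 := by linear_combination hw - h2 (1 : F)
  have hqA : ∀ a, q (A0 a) = pu a 0 0 := by
    intro a
    rw [show q (A0 a) = _ from hqδ _ _ _, mul_inv_eq_iff_eq_mul, pu_mul]
    congr 1
    · linear_combination (w * a) * hw3 - a * hsum + h2 0 + (w * a) * h2 1 - a * h2 1
    · simp
    · simp
  have hqB : ∀ b, q (B0 b) = pu 0 b 0 := by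
    intro b
    rw [show q (B0 b) = _ from hqδ _ _ _, mul_inv_eq_iff_eq_mul, pu_mul]
    congr 1
    · simp
    · linear_combination (w * b) * hw3 - b * hsum + h2 0 + (w * b) * h2 1 - b * h2 1
    · simp
  have hqC : ∀ c, q (C0 c) = pu 0 0 c := by
    intro c
    rw [show q (C0 c) = _ from hqδ _ _ _, mul_inv_eq_iff_eq_mul, pu_mul]
    congr 1
    · simp
    · simp
    · linear_combination c * hsum - (w * c) * h2 1
  have hAC : ∀ a c, A0 a * C0 c = C0 c * A0 a := fun a c => hcA _ _ _ _ _ _ (hqA a) (hqC c)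
  have hBC : ∀ b c, B0 b * C0 c = C0 c * B0 b := fun b c => hcB _ _ _ _ _ _ (hqB b) (hqC c)
  have hAA : ∀ a a', A0 a * A0 a' = A0 a' * A0 a := fun a a' =>
    hcA _ _ _ _ _ _ (hqA a) (hqA a')
  have hBB : ∀ b b', B0 b * B0 b' = B0 b' * B0 b := fun b b' =>
    hcB _ _ _ _ _ _ (hqB b) (hqB b')
  have hAadd : ∀ a a', A0 (a + a') = A0 a * A0 a' := by
    intro a a'
    have e := hδmul (s (pu (w * w * a) 0 0)) (s (pu (w * w * a') 0 0)) ?_
    · simp only [map_mul, hs, pu_mul] at e
      refine Eq.trans ?_ e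
      show δ _ = δ _
      congr 2 <;> ring
    · refine hcA a' 0 (w * w * a) 0 _ _ ?_ ?_
      · rw [hs]; exact hqA a'
      · rw [map_inv, hs, inv_eq_iff_mul_eq_one, pu_mul, ← pu_zero (F := F)]
        congr 1 <;> simp [h2]
  have hBadd : ∀ b b', B0 (b + b') = B0 b * B0 b' := by
    intro b b'
    have e := hδmul (s (pu 0 (w * w * b) 0)) (s (pu 0 (w * w * b') 0)) ?_
    · simp only [map_mul, hs, pu_mul] at e
      refine Eq.trans ?_ e
      show δ _ = δ _
      congr 2 <;> ring
    · refine hcB b' 0 (w * w * b) 0 _ _ ?_ ?_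
      · rw [hs]; exact hqB b'
      · rw [map_inv, hs, inv_eq_iff_mul_eq_one, pu_mul, ← pu_zero (F := F)]
        congr 1 <;> simp [h2]
  have hCadd : ∀ c c', C0 (c + c') = C0 c * C0 c' := by
    intro c c'
    have e := hδmul (s (pu 0 0 (w * c))) (s (pu 0 0 (w * c'))) ?_
    · simp only [map_mul, hs, pu_mul] at e
      refine Eq.trans ?_ e
      show δ _ = δ _
      congr 2 <;> ring
    · refine hcA 0 c' 0 (w * c) _ _ ?_ ?_
      · rw [hs]; exact hqC c'
      · rw [map_inv, hs, inv_eq_iff_mul_eq_one, pu_mul, ← pu_zero (F := F)]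
        congr 1 <;> simp [h2]
  have hA0 : A0 0 = 1 := by simpa using hAadd 0 0
  have hB0 : B0 0 = 1 := by simpa using hBadd 0 0
  have hC0 : C0 0 = 1 := by simpa using hCadd 0 0
  have hTA : ∀ a, T * A0 a = A0 (w * w * a) * T := by
    intro a
    rw [← mul_inv_eq_iff_eq_mul, show T * A0 a * T⁻¹ = _ from hδconj _, hπpu,
      mul_inv_cancel_right]
    show δ _ = δ _
    congr 2 <;> ring
  have hTB : ∀ b, T * B0 b = B0 (w * w * b) * T := by
    intro b
    rw [← mul_inv_eq_iff_eq_mul, show T * B0 b * T⁻¹ = _ from hδconj _, hπpu,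
      mul_inv_cancel_right]
    show δ _ = δ _
    congr 2 <;> ring
  have hTC : ∀ c, T * C0 c = C0 (w * c) * T := by
    intro c
    rw [← mul_inv_eq_iff_eq_mul, show T * C0 c * T⁻¹ = _ from hδconj _, hπpu,
      mul_inv_cancel_right]
    show δ _ = δ _
    congr 2 <;> ring
  -- the commutator pairing
  let f : F → F → E := fun a b => A0 a * B0 b * (C0 (a * b) * (B0 b * A0 a))⁻¹
  have hf : ∀ a b, A0 a * B0 b = f a b * (C0 (a * b) * (B0 b * A0 a)) := fun a b =>
    (inv_mul_cancel_right _ _).symm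
  have hfker : ∀ a b, f a b ∈ q.ker := by
    intro a b
    rw [MonoidHom.mem_ker]
    simp only [f, map_mul, map_inv, hqA, hqB, hqC, pu_mul, mul_inv_eq_one]
    congr 1 <;> ring
  have hfc : ∀ a b g, g * f a b = f a b * g := fun a b g => hcomm _ (hfker a b) g
  have hfadd₁ : ∀ a a' b, f (a + a') b = f a b * f a' b := by
    intro a a' b
    refine mul_right_cancel (b := C0 ((a + a') * b) * (B0 b * A0 (a + a'))) ?_
    rw [← hf, hAadd]
    calc A0 a * A0 a' * B0 b = A0 a * (A0 a' * B0 b) := by group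
      _ = (A0 a * f a' b) * C0 (a' * b) * B0 b * A0 a' := by rw [hf]; group
      _ = f a' b * (A0 a * C0 (a' * b)) * B0 b * A0 a' := by rw [hfc]; group
      _ = f a' b * C0 (a' * b) * (A0 a * B0 b) * A0 a' := by rw [hAC]; group
      _ = f a' b * (C0 (a' * b) * f a b) * C0 (a * b) * B0 b * (A0 a * A0 a') := by
          rw [hf]; group
      _ = (f a' b * f a b) * (C0 (a' * b) * C0 (a * b)) * B0 b * (A0 a * A0 a') := by
          rw [hfc]; group
      _ = _ := by
          rw [hfc, ← hCadd, show a' * b + a * b = (a + a') * b by ring]; group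
  have hfadd₂ : ∀ a b b', f a (b + b') = f a b * f a b' := by
    intro a b b'
    refine mul_right_cancel (b := C0 (a * (b + b')) * (B0 (b + b') * A0 a)) ?_
    rw [← hf, hBadd]
    calc A0 a * (B0 b * B0 b') = (A0 a * B0 b) * B0 b' := by group
      _ = f a b * C0 (a * b) * B0 b * (A0 a * B0 b') := by rw [hf]; group
      _ = f a b * C0 (a * b) * (B0 b * f a b') * C0 (a * b') * B0 b' * A0 a := by
          rw [hf]; group
      _ = f a b * (C0 (a * b) * f a b') * (B0 b * C0 (a * b')) * B0 b' * A0 a := by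
          rw [hfc]; group
      _ = (f a b * f a b') * C0 (a * b) * (C0 (a * b') * B0 b) * B0 b' * A0 a := by
          rw [hfc, hBC]; group
      _ = (f a b * f a b') * (C0 (a * b) * C0 (a * b')) * (B0 b * B0 b') * A0 a := by group
      _ = _ := by rw [← hCadd, show a * b + a * b' = a * (b + b') by ring]; group
  have hfw : ∀ a b, f (w * w * a) (w * w * b) = f a b := by
    intro a b
    refine mul_right_cancel
      (b := C0 (w * w * a * (w * w * b)) * (B0 (w * w * b) * A0 (w * w * a))) ?_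
    rw [← hf, show w * w * a * (w * w * b) = w * (a * b) by linear_combination (w * a * b) * hw3]
    refine mul_right_cancel (b := T) ?_
    calc A0 (w * w * a) * B0 (w * w * b) * T = A0 (w * w * a) * (T * B0 b) := by
          rw [hTB]; group
      _ = (T * A0 a) * B0 b := by rw [hTA]; group
      _ = T * (A0 a * B0 b) := by group
      _ = (T * f a b) * C0 (a * b) * (B0 b * A0 a) := by rw [hf]; group
      _ = f a b * (T * C0 (a * b)) * B0 b * A0 a := by rw [hfc]; group
      _ = f a b * C0 (w * (a * b)) * (T * B0 b) * A0 a := by rw [hTC]; group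
      _ = f a b * C0 (w * (a * b)) * B0 (w * w * b) * (T * A0 a) := by rw [hTB]; group
      _ = _ := by rw [hTA]; group
  set Z0 := Subgroup.closure ({f 1 1, f 1 w} : Set E) with hZ0
  have hZker : Z0 ≤ q.ker := (Subgroup.closure_le _).mpr (by
    rintro x (rfl | rfl) <;> exact hfker _ _)
  have hf0a : ∀ b, f 0 b = 1 := fun b => by simpa using hfadd₁ 0 0 b
  have hf0b : ∀ a, f a 0 = 1 := fun a => by simpa using hfadd₂ a 0 0
  have hf1 : ∀ b, f 1 b ∈ Z0 := by
    have h11 : f 1 1 ∈ Z0 := Subgroup.subset_closure (by simp)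
    have h1w : f 1 w ∈ Z0 := Subgroup.subset_closure (by simp)
    intro b
    rcases hall b with rfl | rfl | rfl | rfl
    · rw [hf0b]; exact one_mem _
    · exact h11
    · exact h1w
    · rw [show w * w = 1 + w by linear_combination hw - h2 1 - w * h2 1, hfadd₂]
      exact mul_mem h11 h1w
  have hfZ : ∀ a b, f a b ∈ Z0 := by
    intro a b
    rcases hall a with h | h | h | h <;> rw [h]
    · rw [hf0a]; exact one_mem _
    · exact hf1 b
    · rw [← hfw, show w * w * w = 1 from hw3]; exact hf1 _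
    · rw [← hfw, ← hfw (w * w * (w * w)),
        show w * w * (w * w * (w * w)) = 1 by linear_combination (w * w * w + 1) * hw3]
      exact hf1 _
  -- the normal form
  let N : E → Prop := fun x => ∃ z ∈ Z0, ∃ a b c : F, ∃ i : ℕ, x = z * C0 c * B0 b * A0 a * T ^ i
  have hNz : ∀ z' ∈ Z0, ∀ x, N x → N (z' * x) := by
    rintro z' hz' x ⟨z, hz, a, b, c, i, rfl⟩
    exact ⟨z' * z, mul_mem hz' hz, a, b, c, i, by group⟩
  have hNC : ∀ c' x, N x → N (C0 c' * x) := by
    rintro c' x ⟨z, hz, a, b, c, i, rfl⟩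
    refine ⟨z, hz, a, b, c' + c, i, ?_⟩
    calc C0 c' * (z * C0 c * B0 b * A0 a * T ^ i) = (C0 c' * z) * C0 c * B0 b * A0 a * T ^ i := by
          group
      _ = z * (C0 c' * C0 c) * B0 b * A0 a * T ^ i := by rw [hcomm z (hZker hz)]; group
      _ = _ := by rw [hCadd]
  have hNB : ∀ b' x, N x → N (B0 b' * x) := by
    rintro b' x ⟨z, hz, a, b, c, i, rfl⟩
    refine ⟨z, hz, a, b' + b, c, i, ?_⟩
    calc B0 b' * (z * C0 c * B0 b * A0 a * T ^ i) = (B0 b' * z) * C0 c * B0 b * A0 a * T ^ i := by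
          group
      _ = z * (B0 b' * C0 c) * B0 b * A0 a * T ^ i := by rw [hcomm z (hZker hz)]; group
      _ = z * C0 c * (B0 b' * B0 b) * A0 a * T ^ i := by rw [hBC]; group
      _ = _ := by rw [hBadd]
  have hNA : ∀ a' x, N x → N (A0 a' * x) := by
    rintro a' x ⟨z, hz, a, b, c, i, rfl⟩
    refine ⟨z * f a' b, mul_mem hz (hfZ _ _), a' + a, b, c + a' * b, i, ?_⟩
    calc A0 a' * (z * C0 c * B0 b * A0 a * T ^ i) = (A0 a' * z) * C0 c * B0 b * A0 a * T ^ i := by
          group
      _ = z * (A0 a' * C0 c) * B0 b * A0 a * T ^ i := by rw [hcomm z (hZker hz)]; group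
      _ = z * C0 c * (A0 a' * B0 b) * A0 a * T ^ i := by rw [hAC]; group
      _ = z * (C0 c * f a' b) * C0 (a' * b) * B0 b * (A0 a' * A0 a) * T ^ i := by rw [hf]; group
      _ = z * f a' b * (C0 c * C0 (a' * b)) * B0 b * (A0 a' * A0 a) * T ^ i := by rw [hfc]; group
      _ = _ := by rw [hCadd, hAadd]
  have hNT : ∀ x, N x → N (T * x) := by
    rintro x ⟨z, hz, a, b, c, i, rfl⟩
    refine ⟨z, hz, w * w * a, w * w * b, w * c, i + 1, ?_⟩
    calc T * (z * C0 c * B0 b * A0 a * T ^ i) = (T * z) * C0 c * B0 b * A0 a * T ^ i := by group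
      _ = z * (T * C0 c) * B0 b * A0 a * T ^ i := by rw [hcomm z (hZker hz)]; group
      _ = z * C0 (w * c) * (T * B0 b) * A0 a * T ^ i := by rw [hTC]; group
      _ = z * C0 (w * c) * B0 (w * w * b) * (T * A0 a) * T ^ i := by rw [hTB]; group
      _ = z * C0 (w * c) * B0 (w * w * b) * A0 (w * w * a) * (T * T ^ i) := by rw [hTA]; group
      _ = _ := by rw [pow_succ']
  set K0 := Subgroup.closure
    ((Z0 : Set E) ∪ Set.range A0 ∪ Set.range B0 ∪ Set.range C0 ∪ {T}) with hK0
  have hK0N : ∀ x ∈ K0, N x := by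
    intro x hx
    induction hx using Subgroup.closure_induction_left with
    | one => exact ⟨1, one_mem _, 0, 0, 0, 0, by rw [hA0, hB0, hC0]; group⟩
    | mul_left g hg y hy ih =>
      rcases hg with (((hg | ⟨a, rfl⟩) | ⟨b, rfl⟩) | ⟨c, rfl⟩) | rfl
      · exact hNz g hg y ih
      · exact hNA a y ih
      · exact hNB b y ih
      · exact hNC c y ih
      · exact hNT y ih
    | inv_mul_cancel g hg y hy ih =>
      rcases hg with (((hg | ⟨a, rfl⟩) | ⟨b, rfl⟩) | ⟨c, rfl⟩) | rfl
      · exact hNz _ (inv_mem hg) y ih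
      · rw [inv_eq_of_mul_eq_one_right (hinvA _ _ _ (hqA a))]; exact hNA a y ih
      · rw [inv_eq_of_mul_eq_one_right (hinvB _ _ _ (hqB b))]; exact hNB b y ih
      · rw [inv_eq_of_mul_eq_one_right (hinvA _ _ _ (hqC c))]; exact hNC c y ih
      · rw [inv_eq_of_mul_eq_one_right (show g * (g * g) = 1 by rw [← hT3, pow_three]), mul_assoc]
        exact hNT _ (hNT y ih)
  have hK0ker : ∀ x ∈ K0, x ∈ q.ker → x ∈ Z0 := by
    intro x hx hxk
    obtain ⟨z, hz, a, b, c, i, rfl⟩ := hK0N x hx
    have hz1 : q z = 1 := hZker hz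
    rw [MonoidHom.mem_ker] at hxk
    simp only [map_mul, map_pow, hz1, hqA, hqB, hqC, hqT, one_mul, pu_mul] at hxk
    have e : pu a b c * π ^ i = 1 := by rw [← hxk]; congr 2 <;> ring
    obtain ⟨rfl, rfl, rfl⟩ := pu_torus_eq_one hw e
    rw [pu_zero, one_mul] at e
    have hTi : T ^ i ∈ q.ker := by rw [MonoidHom.mem_ker, map_pow, hqT, e]
    have : T ^ i = 1 := by
      have h22 := hexp _ hTi
      calc T ^ i = (T ^ 3) ^ i * (T ^ i * T ^ i)⁻¹ := by
            rw [← pow_mul, ← pow_add, eq_mul_inv_iff_mul_eq, ← pow_add]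
            congr 1; ring
        _ = 1 := by rw [hT3, h22, one_pow, inv_one, one_mul]
    rw [hA0, hB0, hC0, this, mul_one, mul_one, mul_one, mul_one]
    exact hz
  -- transfer
  set S := K0 ⊔ q.ker with hS
  have hmemS : ∀ g, g ∈ S ↔ ∃ y ∈ K0, ∃ z ∈ q.ker, y * z = g := fun g =>
    Subgroup.mem_sup_of_normal_right
  have hnorm : (K0.subgroupOf S).Normal := by
    refine ⟨fun n hn g => ?_⟩
    obtain ⟨y, hy, z, hz, he⟩ := (hmemS g).mp g.2
    rw [Subgroup.mem_subgroupOf] at hn ⊢
    have e : ((g * n * g⁻¹ : S) : E) = y * (n : E) * y⁻¹ := by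
      push_cast
      rw [← he]
      calc y * z * n * (y * z)⁻¹ = y * (z * n) * z⁻¹ * y⁻¹ := by group
        _ = _ := by rw [← hcomm z hz]; group
    rw [e]
    exact mul_mem (mul_mem hy hn) (inv_mem hy)
  let instA : CommGroup (S ⧸ K0.subgroupOf S) :=
    { QuotientGroup.Quotient.group _ with
      mul_comm := by
        intro p r
        induction p using QuotientGroup.induction_on with | H g => ?_
        induction r using QuotientGroup.induction_on with | H h => ?_
        rw [← QuotientGroup.mk_mul, ← QuotientGroup.mk_mul, QuotientGroup.eq,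
          Subgroup.mem_subgroupOf]
        obtain ⟨y, hy, z, hz, he⟩ := (hmemS g).mp g.2
        obtain ⟨y', hy', z', hz', he'⟩ := (hmemS h).mp h.2
        have e : (((g * h)⁻¹ * (h * g) : S) : E) = y'⁻¹ * y⁻¹ * y' * y := by
          push_cast
          rw [← he, ← he']
          calc (y * z * (y' * z'))⁻¹ * (y' * z' * (y * z))
              = z'⁻¹ * (y'⁻¹ * z⁻¹) * y⁻¹ * y' * (z' * y) * z := by group
            _ = (z'⁻¹ * z⁻¹) * (y'⁻¹ * y⁻¹ * y' * y * (z' * z)) := by
                rw [hcomm z⁻¹ (inv_mem hz), ← hcomm z' hz' y]; group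
            _ = _ := by
                rw [← hcomm (z'⁻¹ * z⁻¹) (mul_mem (inv_mem hz') (inv_mem hz)),
                  ← hcomm z' hz' z]
                group
        rw [e]
        exact mul_mem (mul_mem (mul_mem (inv_mem hy') (inv_mem hy)) hy') hy }
  have hodd : Odd S.index := by
    rw [Nat.odd_iff]
    by_contra h'
    have h : 2 ∣ S.index := by omega
    clear h'
    obtain ⟨U, hU, hUmem⟩ := exists_uni_subgroup hF
    have hUS : U ≤ S.map q := by
      intro x hx
      obtain ⟨a, b, c, rfl⟩ := hUmem x hx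
      refine ⟨C0 c * B0 b * A0 a, Subgroup.mem_sup_left
        (mul_mem (mul_mem ?_ ?_) ?_), ?_⟩
      · exact Subgroup.subset_closure (by simp)
      · exact Subgroup.subset_closure (by simp)
      · exact Subgroup.subset_closure (by simp)
      · simp only [map_mul, hqA, hqB, hqC, pu_mul]; congr 1 <;> ring
    have hd : 64 ∣ Nat.card (S.map q) := hU ▸ Subgroup.card_dvd_of_le hUS
    rw [← Subgroup.index_map_eq S hq le_sup_right] at h
    exact not_dvd_card_PSL hF
      ((Nat.mul_dvd_mul hd h).trans (dvd_of_eq (Subgroup.card_mul_index _)))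
  have hkerK : ∀ z ∈ q.ker, z ∈ K0 := by
    intro z hz
    have key : ∀ (k : ℕ) (g₀ : E), g₀⁻¹ * z ^ k * g₀ ∈ S → g₀⁻¹ * z ^ k * g₀ = z ^ k := by
      intro k g₀ _
      rw [mul_assoc, ← hcomm _ (pow_mem hz k), inv_mul_cancel_left]
    have e := MonoidHom.transfer_eq_pow (QuotientGroup.mk' (K0.subgroupOf S)) z key
    have htriv : MonoidHom.transfer (QuotientGroup.mk' (K0.subgroupOf S)) z = 1 := by
      rw [← MonoidHom.mem_ker]
      exact Abelianization.commutator_subset_ker _ (hperf ▸ Subgroup.mem_top z)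
    rw [htriv, eq_comm, QuotientGroup.mk'_apply, QuotientGroup.eq_one_iff,
      Subgroup.mem_subgroupOf] at e
    obtain ⟨j, hj⟩ := hodd
    have hz2 : z ^ 2 = 1 := by rw [pow_two, hexp z hz]
    simpa [hj, pow_succ, pow_mul, hz2] using e
  calc Nat.card q.ker ≤ Nat.card Z0 := Nat.card_le_card_of_injective
        (fun z => ⟨z.1, hK0ker _ (hkerK _ z.2) z.2⟩)
        fun a b h => Subtype.ext (congrArg Subtype.val h :)
    _ ≤ 4 := card_closure_pair_le _ _ (hexp _ (hfker 1 1)) (hexp _ (hfker 1 w))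
        (hfc 1 w _)

end CfsgLib.PSL34
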